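import Cfsg.Agent.E6Cubic.Rep

/-!
Every isometry of the cubic form is a product of root elements: it is moved step by step to fix
all basis vectors.
-/

set_option autoImplicit false

namespace CfsgLib.E6Cubic

open Cfsg.Lie CfsgLib.ChevOrth

/-- The entries in a column. -/
def colOf (A : Sp) (b : Fin 27) : List (Fin 27 × ℤ) :=
  A.filterMap fun x => if x.2.1 = b then some (x.1, x.2.2) else none

/-- A single unit term. -/
def unitTerm {α : Type} [DecidableEq α] (L : List (ℤ × α)) (j : α) : Bool :=
  decide (L = [(1, j)]) || decide (L = [(-1, j)])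

/-- A single unit entry. -/
def unitEntry (L : List (Fin 27 × ℤ)) (j : Fin 27) : Bool :=
  decide (L = [(j, 1)]) || decide (L = [(j, -1)])

/-- The root element fixes the given points. -/
def fixB (P : List (Fin 27)) (r : ℕ) : Bool :=
  decide (r < 72) && P.all fun p => decide (colOf (rv r) p = [])

/-- The check of a vanishing coordinate. -/
def zeroB (P : List (Fin 27)) (k : Fin 27) : Fin 27 × ZWit → Bool
  | (j, .rad p i) => P.contains p && decide (linTerms p k = []) && unitTerm (linTerms p i) j
  | (j, .tri a b) => P.contains a && P.contains b && unitTerm (linTerms a b) j && decide (j ≠ k)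

/-- The check of the pivot moves. -/
def pivB (P : List (Fin 27)) : List (Fin 27) → List (Fin 27 × ℕ × Fin 27) → Bool
  | _, [] => true
  | seen, (j, r, h) :: L =>
    fixB P r && seen.contains h && unitEntry (rowOf (rv r) h) j && pivB P (j :: seen) L

/-- The check of one step. -/
def stepB (P : List (Fin 27)) (s : Step) : Bool :=
  let Z := s.zero.map Prod.fst
  let C := s.clr.map Prod.fst
  let V := s.k :: s.piv.map Prod.fst
  s.zero.all (zeroB P s.k) &&
  pivB P [s.k] s.piv &&
  (match s.val, s.sc with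
    | some (a, b), _ => P.contains a && P.contains b && unitTerm (linTerms a b) s.k
    | none, some (r, h) =>
      fixB P r && fixB P (chevE6.neg r) && unitEntry (colOf (rv r) s.k) h &&
        unitEntry (colOf (rv (chevE6.neg r)) h) s.k &&
        decide (colOf (rv (chevE6.neg r)) s.k = []) && decide (colOf (rv r) h = []) &&
        decide (h ≠ s.k) &&
        (match s.wit with
          | some p => P.contains p && decide (linTerms p s.k ≠ []) &&
              (qTerms p).all fun m => (Z.contains m.2.1 || V.contains m.2.1) &&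
                (Z.contains m.2.2 || V.contains m.2.2)
          | none => (List.finRange 27).all fun j => Z.contains j || V.contains j)
    | none, none => false) &&
  (s.clr.all fun e => fixB P e.2 && unitEntry (rowOf (rv e.2) e.1) s.k &&
    decide (rowOf (rv e.2) s.k = []) &&
    s.clr.all fun e' => decide (e'.1 = e.1) || decide (rowOf (rv e.2) e'.1 = [])) &&
  (List.finRange 27).all fun j => decide (j = s.k) || Z.contains j || C.contains j ||
    (List.finRange 27).any fun r => unitTerm (linTerms r s.k) j &&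
      (qTerms r).all fun m => decide (m.2.1 = s.k) || decide (m.2.2 = s.k) ||
        Z.contains m.2.1 || C.contains m.2.1 || Z.contains m.2.2 || C.contains m.2.2

/-- The check of all steps. -/
def stepsB : List (Fin 27) → List Step → Bool
  | P, [] => (List.finRange 27).all fun j => P.contains j
  | P, s :: L => stepB P s && stepsB (s.k :: P) L

theorem linTerms_short : ∀ p k : Fin 27,
    (linTerms p k).length ≤ 1 ∧ ∀ e ∈ linTerms p k, e.1 = 1 ∨ e.1 = -1 := by decide +kernel

theorem stepsB_ok : stepsB [] stepTab = true := by decide +kernel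

variable {F : Type*} [Field F]

/-- The action on vectors. -/
abbrev act (g : GL I27 F) (v : I27 → F) : I27 → F := (g : Matrix I27 I27 F).mulVec v

theorem act_mul (g h : GL I27 F) (v : I27 → F) : act (g * h) v = act g (act h v) := by
  simp [act, Matrix.mulVec_mulVec]

theorem mem_univ {g : GL I27 F} : g ∈ E6univ F ↔ ∀ v, cubicT (act g v) = cubicT v := Iff.rfl

/-- The root elements. -/
noncomputable def re (r : ℕ) (t : F) : GL I27 F := (checked (F := F)).gl r t

theorem act_re (r : ℕ) (t : F) (v : I27 → F) (a : Fin 27) :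
    co (act (re r t) v) a = co v a + t * linE ((rowOf (rv r) a).map fun y => (y.2, y.1)) v :=
  co_rmat r t v a

theorem re_mem_univ {r : ℕ} (hr : r < 72) (t : F) : re r t ∈ E6univ F := fun v =>
  cubicT_rmat hr t v

/-- The group generated by the root elements. -/
noncomputable def rootGroup (F : Type*) [Field F] : Subgroup (GL I27 F) :=
  (checked (F := F)).coverHom.range

theorem re_mem (r : ℕ) (t : F) : re r t ∈ rootGroup F := ⟨_, (checked (F := F)).coverHom_gen r t⟩

theorem rootGroup_le : rootGroup F ≤ E6univ F := by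
  rw [rootGroup, Checked.coverHom_range, Subgroup.closure_le]
  rintro _ ⟨r, hr, t, rfl⟩
  exact re_mem_univ (lt_of_lt_of_eq hr (by decide +kernel)) t

theorem spMat_eb (A : Sp) (k : Fin 27) :
    (spMat A F).mulVec (eb k) = ((colOf A k).map fun y => (y.2 : F) • eb y.1).sum := by
  induction A with
  | nil => simp [spMat_nil, colOf]
  | cons x A ih =>
    rw [spMat_cons, Matrix.add_mulVec, ih]
    by_cases h : x.2.1 = k
    · subst h
      rw [colOf, colOf, List.filterMap_cons_some (by rw [if_pos rfl]), List.map_cons,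
        List.sum_cons]
      congr 1
      simp [eb, Matrix.mulVec_single, ← Pi.single_smul]
      ext i
      simp [Matrix.single_apply, Pi.single_apply, eq_comm]
    · rw [colOf, colOf, List.filterMap_cons_none (by rw [if_neg h])]
      conv_rhs => rw [← zero_add (List.sum _)]
      congr 1
      simp [eb, Matrix.mulVec_single]
      ext i
      simp [Matrix.single_apply, h]

theorem act_re_eb (r : ℕ) (t : F) (k : Fin 27) :
    act (re r t) (eb k) = eb k + t • ((colOf (rv r) k).map fun y => (y.2 : F) • eb y.1).sum := by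
  show (rmat tab F r t).mulVec _ = _
  rw [rmat_tab, Matrix.add_mulVec, Matrix.one_mulVec, Matrix.smul_mulVec, spMat_eb]

/-- The elements fixing the given basis vectors. -/
def FixP (P : List (Fin 27)) (g : GL I27 F) : Prop := ∀ p ∈ P, act g (eb p) = eb p

theorem FixP.mul {P : List (Fin 27)} {g h : GL I27 F} (hg : FixP P g) (hh : FixP P h) :
    FixP P (g * h) := fun p hp => by rw [act_mul, hh p hp, hg p hp]

theorem fixP_re {P : List (Fin 27)} {r : ℕ} (h : fixB P r = true) (t : F) :
    FixP P (re r t) ∧ re r t ∈ E6univ F := by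
  simp only [fixB, Bool.and_eq_true, decide_eq_true_eq, List.all_eq_true] at h
  refine ⟨fun p hp => ?_, re_mem_univ h.1 t⟩
  rw [act_re_eb, h.2 p hp, List.map_nil, List.sum_nil, smul_zero, add_zero]

/-- White points: `cubicT` is affine on every line in their direction. -/
def White (v : I27 → F) : Prop :=
  ∀ (x : I27 → F) (t : F), cubicT (x + t • v) = cubicT x + t * (cubicT (x + v) - cubicT x)

theorem white_eb (k : Fin 27) : White (eb k : I27 → F) := fun x t => by
  rw [add_comm x (t • _), cubicT_add_eb, add_comm x (eb k), ← one_smul F (eb k), cubicT_add_eb]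
  ring

theorem White.map {v : I27 → F} (hv : White v) {g : GL I27 F} (hg : g ∈ E6univ F) :
    White (act g v) := by
  intro x t
  obtain ⟨y, rfl⟩ : ∃ y, act g y = x :=
    ⟨act g⁻¹ x, by rw [← act_mul, mul_inv_cancel, act, Units.val_one, Matrix.one_mulVec]⟩
  rw [act, ← Matrix.mulVec_smul, ← Matrix.mulVec_add, ← Matrix.mulVec_add, mem_univ.mp hg,
    mem_univ.mp hg, mem_univ.mp hg]
  exact hv y t

theorem White.Q_eq_zero (hF : ∃ t₀ : F, t₀ ≠ 0 ∧ t₀ ≠ 1) {v : I27 → F} (hv : White v)
    (r : Fin 27) : Q r v = 0 := by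
  obtain ⟨t, ht0, ht1⟩ := hF
  have hz : cubicT (0 : I27 → F) = 0 := by simpa using cubicT_smul (0 : F) (0 : I27 → F)
  have h0 := hv 0 t
  rw [zero_add, zero_add, cubicT_smul, hz, zero_add, sub_zero] at h0
  have h1 := hv (eb r) t
  rw [← one_smul F (eb r), cubicT_add_eb, cubicT_add_eb, cubicT_smul, cubicT_smul, cubicT_eb,
    Q_smul] at h1
  have : (t * (t - 1)) * Q r v = 0 := by linear_combination h1 - h0
  exact (mul_eq_zero.mp this).resolve_left (mul_ne_zero ht0 (sub_ne_zero.mpr ht1))

theorem linE_unit {L : List (ℤ × Fin 27)} {j : Fin 27} (h : unitTerm L j = true) (v : I27 → F) :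
    ∃ c : F, c ≠ 0 ∧ linE L v = c * co v j := by
  simp only [unitTerm, Bool.or_eq_true, decide_eq_true_eq] at h
  rcases h with rfl | rfl <;> [refine ⟨1, one_ne_zero, ?_⟩; refine ⟨-1, by simp, ?_⟩] <;> simp [linE]

theorem linE_row_unit {L : List (Fin 27 × ℤ)} {j : Fin 27} (h : unitEntry L j = true)
    (v : I27 → F) : ∃ c : F, c ≠ 0 ∧ linE (L.map fun y => (y.2, y.1)) v = c * co v j := by
  simp only [unitEntry, Bool.or_eq_true, decide_eq_true_eq] at h
  rcases h with rfl | rfl <;> [refine ⟨1, one_ne_zero, ?_⟩; refine ⟨-1, by simp, ?_⟩] <;> simp [linE]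

theorem col_unit {L : List (Fin 27 × ℤ)} {j : Fin 27} (h : unitEntry L j = true) :
    ∃ c : F, c ≠ 0 ∧ (L.map fun y => (y.2 : F) • (eb y.1 : I27 → F)).sum = c • (eb j : I27 → F) := by
  simp only [unitEntry, Bool.or_eq_true, decide_eq_true_eq] at h
  rcases h with rfl | rfl <;> [refine ⟨1, one_ne_zero, ?_⟩; refine ⟨-1, by simp, ?_⟩] <;> simp

variable {P : List (Fin 27)} {g : GL I27 F}

theorem Q_act (hg : g ∈ E6univ F) (hP : FixP P g) {p : Fin 27} (hp : p ∈ P) (x : I27 → F) :
    Q p (act g x) = Q p x := by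
  have h := mem_univ.mp hg (eb p + x)
  rw [act, Matrix.mulVec_add] at h
  rw [show (g : Matrix I27 I27 F).mulVec (eb p) = eb p from hP p hp, ← one_smul F (eb p),
    cubicT_add_eb, cubicT_add_eb, mem_univ.mp hg] at h
  simpa using h

theorem B_act (hg : g ∈ E6univ F) (hP : FixP P g) {a b : Fin 27} (ha : a ∈ P) (hb : b ∈ P)
    (x : I27 → F) : B a b (act g x) = B a b x := by
  have h := Q_act hg hP ha (eb b + x)
  rw [act, Matrix.mulVec_add, show (g : Matrix I27 I27 F).mulVec (eb b) = eb b from hP b hb,
    ← one_smul F (eb b), Q_add_eb, Q_add_eb, Q_act hg hP ha] at h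
  simpa using h

theorem zero_of_zeroB (hg : g ∈ E6univ F) (hP : FixP P g) {k : Fin 27} {e : Fin 27 × ZWit}
    (h : zeroB P k e = true) : co (act g (eb k)) e.1 = 0 := by
  obtain ⟨j, w⟩ := e
  cases w with
  | rad p i =>
    simp only [zeroB, Bool.and_eq_true, decide_eq_true_eq, List.contains_iff_mem] at h
    obtain ⟨⟨hp, hk⟩, hi⟩ := h
    have hx : ∀ x : I27 → F, Q p (eb k + x) = Q p x := fun x => by
      rw [← one_smul F (eb k), Q_add_eb, B, hk]; simp [linE]
    obtain ⟨c, hc, hcv⟩ := linE_unit (F := F) hi (act g (eb k))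
    have e1 : Q p (act g (eb k)) = 0 := by rw [Q_act hg hP hp, Q_eb]
    have e2 : Q p ((1 : F) • eb i + act g (eb k)) = 0 := by
      obtain ⟨y, hy⟩ : ∃ y, act g y = (1 : F) • eb i :=
        ⟨act g⁻¹ ((1 : F) • eb i), by
          rw [← act_mul, mul_inv_cancel, act, Units.val_one, Matrix.one_mulVec]⟩
      rw [← hy, act, ← Matrix.mulVec_add, Q_act hg hP hp, add_comm, hx,
        ← Q_act hg hP hp, hy, one_smul, Q_eb]
    rw [Q_add_eb, e1, zero_add, one_mul, B, hcv] at e2
    exact (mul_eq_zero.mp e2).resolve_left hc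
  | tri a b =>
    simp only [zeroB, Bool.and_eq_true, decide_eq_true_eq, List.contains_iff_mem] at h
    obtain ⟨⟨⟨ha, hb⟩, hu⟩, hjk⟩ := h
    obtain ⟨c, hc, hcv⟩ := linE_unit (F := F) hu (act g (eb k))
    have e1 := B_act hg hP ha hb (eb k)
    obtain ⟨c', -, hcv'⟩ := linE_unit (F := F) hu (eb k)
    rw [B, B, hcv, hcv', co_eb, if_neg hjk, mul_zero] at e1
    exact (mul_eq_zero.mp e1).resolve_left hc

theorem exists_pivot {v : I27 → F} : ∀ (L : List (Fin 27 × ℕ × Fin 27)) (seen : List (Fin 27))
    (k : Fin 27), pivB P seen L = true →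
    (∀ w : I27 → F, (∃ j ∈ seen, co w j ≠ 0) →
      ∃ h ∈ rootGroup F, FixP P h ∧ co (act h w) k ≠ 0) →
    (∃ j, (j ∈ seen ∨ j ∈ L.map Prod.fst) ∧ co v j ≠ 0) →
    ∃ h ∈ rootGroup F, FixP P h ∧ co (act h v) k ≠ 0 := by
  intro L
  induction L with
  | nil =>
    intro seen k _ ih hv
    exact ih v (by simpa using hv)
  | cons e L ihL =>
    intro seen k hb ih hv
    obtain ⟨j, r, h⟩ := e
    simp only [pivB, Bool.and_eq_true, List.contains_iff_mem] at hb
    obtain ⟨⟨⟨hfix, hh⟩, hrow⟩, hrest⟩ := hb
    refine ihL (j :: seen) k hrest (fun w hw => ?_) ?_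
    · obtain ⟨i, hi, hiw⟩ := hw
      rcases List.mem_cons.mp hi with rfl | hi
      · by_cases hwh : co w h = 0
        · obtain ⟨c, hc, hcv⟩ := linE_row_unit (F := F) hrow w
          obtain ⟨h', hh', hfix', hk'⟩ := ih (act (re r (1 : F)) w) ⟨h, hh, by
            rw [act_re, hcv, hwh, zero_add, one_mul]
            exact mul_ne_zero hc hiw⟩
          exact ⟨h' * re r 1, mul_mem hh' (re_mem r 1), hfix'.mul (fixP_re hfix 1).1,
            by rw [act_mul]; exact hk'⟩
        · exact ih w ⟨h, hh, hwh⟩
      · exact ih w ⟨i, hi, hiw⟩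
    · obtain ⟨i, hi, hiv⟩ := hv
      refine ⟨i, ?_, hiv⟩
      simp only [List.map_cons, List.mem_cons] at hi ⊢
      tauto

theorem exists_clear {k : Fin 27} {C : List (Fin 27 × ℕ)}
    (hC : ∀ e ∈ C, fixB P e.2 = true ∧ unitEntry (rowOf (rv e.2) e.1) k = true ∧
      rowOf (rv e.2) k = [] ∧ ∀ e' ∈ C, e'.1 = e.1 ∨ rowOf (rv e.2) e'.1 = [])
    {v : I27 → F} (hv : co v k ≠ 0) : ∀ L : List (Fin 27 × ℕ), (∀ e ∈ L, e ∈ C) →
    ∃ h ∈ rootGroup F, FixP P h ∧ co (act h v) k = co v k ∧
      ∀ e ∈ L, co (act h v) e.1 = 0 := by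
  intro L
  induction L with
  | nil =>
    exact fun _ => ⟨1, one_mem _, fun p _ => by simp [act], by simp [act], by simp⟩
  | cons e L ih =>
    intro hsub
    obtain ⟨h, hh, hfix, hk, hz⟩ := ih fun x hx => hsub x (List.mem_cons_of_mem _ hx)
    obtain ⟨hf, hrow, hrk, hoth⟩ := hC e (hsub e List.mem_cons_self)
    set w := act h v with hw
    obtain ⟨c, hc, hcv⟩ := linE_row_unit (F := F) hrow w
    refine ⟨re e.2 (-(co w e.1) / (c * co w k)) * h, mul_mem (re_mem _ _) hh,
      (fixP_re hf _).1.mul hfix, ?_, fun x hx => ?_⟩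
    · rw [act_mul, ← hw, act_re, hrk, List.map_nil, hk]
      simp [linE]
    · rw [act_mul, ← hw, act_re]
      by_cases he : x.1 = e.1
      · rw [he, hcv, hk]
        field_simp
        ring
      · rcases List.mem_cons.mp hx with rfl | hx
        · exact absurd rfl he
        · rw [((hoth x (hsub x (List.mem_cons_of_mem _ hx))).resolve_left he), hz x hx]
          simp [linE]

theorem exists_step (hF : ∃ t₀ : F, t₀ ≠ 0 ∧ t₀ ≠ 1) {s : Step} (hs : stepB P s = true)
    (hg : g ∈ E6univ F) (hP : FixP P g) :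
    ∃ h ∈ rootGroup F, FixP (s.k :: P) (h * g) := by
  obtain ⟨k, zl, val, wit, piv, clr, sc⟩ := s
  simp only [stepB, Bool.and_eq_true, List.all_eq_true, Bool.or_eq_true, decide_eq_true_eq,
    List.any_eq_true, List.contains_iff_mem] at hs
  obtain ⟨⟨⟨⟨hz, hpiv⟩, hval⟩, hclr⟩, hrest⟩ := hs
  have huniv : ∀ {h : GL I27 F}, h ∈ rootGroup F → h * g ∈ E6univ F := fun hh =>
    mul_mem (rootGroup_le hh) hg
  have hZ : ∀ {g' : GL I27 F}, g' ∈ E6univ F → FixP P g' →
      ∀ j ∈ zl.map Prod.fst, co (act g' (eb k)) j = 0 := by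
    intro g' h1 h2 j hj
    obtain ⟨e, he, rfl⟩ := List.mem_map.mp hj
    exact zero_of_zeroB h1 h2 (hz e he)
  -- a non-zero pivot
  obtain ⟨h₁, hh₁, hf₁, hk₁⟩ : ∃ h ∈ rootGroup F, FixP P h ∧
      co (act (h * g) (eb k)) k ≠ 0 := by
    rcases val with _ | ⟨a, b⟩
    · rcases sc with _ | ⟨r, h⟩
      · simp at hval
      simp only [Bool.and_eq_true, decide_eq_true_eq] at hval
      obtain ⟨-, hw⟩ := hval
      obtain ⟨j, hj, hjv⟩ : ∃ j, (j ∈ [k] ∨ j ∈ piv.map Prod.fst) ∧
          co (act g (eb k)) j ≠ 0 := by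
        have hmem : ∀ j, j ∈ zl.map Prod.fst ∨ j ∈ k :: piv.map Prod.fst →
            co (act g (eb k)) j ≠ 0 → (j ∈ [k] ∨ j ∈ piv.map Prod.fst) := by
          intro j hj hjv
          rcases hj with hj | hj
          · exact absurd (hZ hg hP j hj) hjv
          · simpa using hj
        by_contra hcon
        push Not at hcon
        rcases wit with _ | p
        · simp only [List.all_eq_true, Bool.or_eq_true, List.contains_iff_mem] at hw
          have hzero : act g (eb k) = 0 := ext_co fun j => by
            by_contra hne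
            exact hne (hcon j (hmem j (hw j (List.mem_finRange j)) hne))
          have := congrArg (act g⁻¹) hzero
          rw [← act_mul, inv_mul_cancel, act, Units.val_one, Matrix.one_mulVec, act,
            Matrix.mulVec_zero] at this
          have h1 := congrArg (fun v => co v k) this
          simp [co_eb, co_zero] at h1
        · simp only [Bool.and_eq_true, List.all_eq_true, Bool.or_eq_true, List.contains_iff_mem,
            decide_eq_true_eq] at hw
          obtain ⟨⟨hp, hne⟩, hcov⟩ := hw
          have h0 : ∀ x, Q p (act g (eb k) + x) = Q p x := by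
            intro x
            simp only [Q, quadE]
            refine congrArg List.sum (List.map_congr_left fun m hm => ?_)
            obtain ⟨h1, h2⟩ := hcov m hm
            have e1 : co (act g (eb k)) m.2.1 = 0 := by
              by_contra hne; exact hne (hcon _ (hmem _ h1 hne))
            have e2 : co (act g (eb k)) m.2.2 = 0 := by
              by_contra hne; exact hne (hcon _ (hmem _ h2 hne))
            simp only [co_add, e1, e2, zero_add]
          have h1 : ∀ x : I27 → F, B p k x = 0 := by
            intro x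
            have := Q_act hg hP hp (eb k + x)
            rw [act, Matrix.mulVec_add] at this
            rw [show (g : Matrix I27 I27 F).mulVec (eb k) = act g (eb k) from rfl,
              show (g : Matrix I27 I27 F).mulVec x = act g x from rfl, h0, Q_act hg hP hp,
              ← one_smul F (eb k), Q_add_eb] at this
            simpa using this
          obtain ⟨⟨c, i⟩, L, hL⟩ := List.exists_cons_of_ne_nil hne
          have hsingle : (linTerms p k).length ≤ 1 ∧ ∀ e ∈ linTerms p k, e.1 = 1 ∨ e.1 = -1 :=
            linTerms_short p k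
          rw [hL] at hsingle
          obtain rfl : L = [] := List.length_eq_zero_iff.mp (by simpa using hsingle.1)
          have := h1 (eb i)
          rw [B, hL] at this
          simp only [linE, List.map_cons, List.map_nil, List.sum_cons, List.sum_nil, add_zero,
            co_eb, if_true, mul_one] at this
          rcases hsingle.2 (c, i) List.mem_cons_self with e | e <;> simp only at e <;>
            simp [e] at this
      obtain ⟨h, hh, hf, hk⟩ := exists_pivot (P := P) piv [k] k hpiv
        (fun w hw => ⟨1, one_mem _, fun p _ => by simp [act], by simpa [act] using hw⟩)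
        ⟨j, hj, hjv⟩
      exact ⟨h, hh, hf, by rw [act_mul]; exact hk⟩
    · simp only [Bool.and_eq_true, List.contains_iff_mem] at hval
      obtain ⟨⟨ha, hb⟩, hu⟩ := hval
      refine ⟨1, one_mem _, fun p _ => by simp [act], ?_⟩
      rw [one_mul]
      obtain ⟨c, hc, hcv⟩ := linE_unit (F := F) hu (act g (eb k))
      obtain ⟨c', hc', hcv'⟩ := linE_unit (F := F) hu (eb k)
      have := B_act hg hP ha hb (eb k)
      rw [B, B, hcv, hcv', co_eb, if_pos rfl, mul_one] at this
      intro e
      rw [e, mul_zero] at this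
      exact hc' this.symm
  -- clearing the neighbours
  obtain ⟨h₂, hh₂, hf₂, hk₂, hc₂⟩ := exists_clear (P := P) (C := clr)
    (fun e he => by
      obtain ⟨⟨⟨q1, q2⟩, q3⟩, q4⟩ := hclr e he
      exact ⟨q1, q2, q3, q4⟩) hk₁ clr fun _ h => h
  set g₂ := h₂ * (h₁ * g) with hg₂
  have hg₂u : g₂ ∈ E6univ F := mul_mem (rootGroup_le hh₂) (huniv hh₁)
  have hP₂ : FixP P g₂ := hf₂.mul (hf₁.mul hP)
  rw [← act_mul, ← hg₂] at hk₂
  set a := co (act g₂ (eb k)) k with ha
  have ha0 : a ≠ 0 := by rw [hk₂]; exact hk₁
  have hkz : ∀ j, j ∈ zl.map Prod.fst ∨ j ∈ clr.map Prod.fst → co (act g₂ (eb k)) j = 0 := by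
    rintro j (hj | hj)
    · exact hZ hg₂u hP₂ j hj
    · obtain ⟨e, he, rfl⟩ := List.mem_map.mp hj
      rw [hg₂, act_mul]
      exact hc₂ e he
  have hvec : act g₂ (eb k) = a • eb k := by
    refine ext_co fun j => ?_
    rw [co_smul, co_eb]
    by_cases hjk : j = k
    · rw [if_pos hjk, mul_one, hjk]
    rw [if_neg hjk, mul_zero]
    rcases hrest j (List.mem_finRange j) with ((e | e) | e) | ⟨r, -, hu, hall⟩
    · exact absurd e hjk
    · exact hkz j (Or.inl e)
    · exact hkz j (Or.inr e)
    set v' := act g₂ (eb k) + (-a) • eb k with hv'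
    have hv'k : co v' k = 0 := by
      rw [hv', co_add, co_smul, co_eb, if_pos rfl, mul_one, ← ha, add_neg_cancel]
    have hv'o : ∀ i, i ≠ k → co v' i = co (act g₂ (eb k)) i := fun i hi => by
      rw [hv', co_add, co_smul, co_eb, if_neg hi, mul_zero, add_zero]
    have hQ' : Q r v' = 0 := by
      refine List.sum_eq_zero fun x hx => ?_
      obtain ⟨m, hm, rfl⟩ := List.mem_map.mp hx
      have hzero : ∀ i, i ∈ zl.map Prod.fst ∨ i ∈ clr.map Prod.fst → co v' i = 0 := fun i hi => by
        by_cases hik : i = k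
        · rw [hik]; exact hv'k
        · rw [hv'o i hik]; exact hkz i hi
      rcases hall m hm with ((((e | e) | e) | e) | e) | e
      · simp [e, hv'k]
      · simp [e, hv'k]
      · simp [hzero _ (Or.inl e)]
      · simp [hzero _ (Or.inr e)]
      · simp [hzero _ (Or.inl e)]
      · simp [hzero _ (Or.inr e)]
    have hQ : Q r (a • eb k + v') = 0 := by
      rw [show a • eb k + v' = act g₂ (eb k) by rw [hv']; module]
      exact ((white_eb k).map hg₂u).Q_eq_zero hF r
    rw [Q_add_eb, hQ', zero_add] at hQ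
    obtain ⟨c, hc, hcv⟩ := linE_unit (F := F) hu v'
    rw [B, hcv, hv'o j hjk] at hQ
    exact ((mul_eq_zero.mp ((mul_eq_zero.mp hQ).resolve_left ha0)).resolve_left hc)
  -- scaling
  rcases val with _ | ⟨a', b'⟩
  · rcases sc with _ | ⟨r, h⟩
    · simp at hval
    simp only [Bool.and_eq_true, decide_eq_true_eq] at hval
    obtain ⟨⟨⟨⟨⟨⟨⟨hr, hm⟩, hcr⟩, hcm⟩, hmk⟩, hrh⟩, hhk⟩, -⟩ := hval
    obtain ⟨x, hx, hxv⟩ := col_unit (F := F) hcr
    obtain ⟨y, hy, hyv⟩ := col_unit (F := F) hcm
    set m := chevE6.neg r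
    let t₁ : F := x⁻¹
    let t₂ : F := (1 - a) / (a * y)
    let t₃ : F := -(a * x⁻¹)
    refine ⟨re r t₃ * re m t₂ * re r t₁ * h₂ * h₁, mul_mem (mul_mem (mul_mem (mul_mem (re_mem _ _)
      (re_mem _ _)) (re_mem _ _)) hh₂) hh₁, fun p hp => ?_⟩
    have e : re r t₃ * re m t₂ * re r t₁ * h₂ * h₁ * g = re r t₃ * re m t₂ * re r t₁ * g₂ := by
      rw [hg₂]; simp only [mul_assoc]
    rw [e]
    rcases List.mem_cons.mp hp with hpk | hp
    · rw [show p = k from hpk, act_mul, hvec, act_mul, act_mul]
      have lin : ∀ (u : GL I27 F) (α β : F) (i i' : Fin 27), act u (α • eb i + β • eb i') =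
          α • act u (eb i) + β • act u (eb i') := fun u α β i i' => by
        simp only [act, Matrix.mulVec_add, Matrix.mulVec_smul]
      have e1 : act (re r t₁) (a • eb k) = a • eb k + a • eb h := by
        rw [act, Matrix.mulVec_smul,
          show ((re r t₁ : GL I27 F) : Matrix I27 I27 F).mulVec (eb k) = act (re r t₁) (eb k) from
            rfl, act_re_eb, hxv, smul_add, smul_smul, smul_smul]
        congr 2
        simp only [t₁]
        field_simp
      have e2 : act (re m t₂) (a • eb k + a • eb h) = (1 : F) • eb k + a • eb h := by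
        rw [lin, act_re_eb, act_re_eb, hmk, hyv, List.map_nil, List.sum_nil, smul_zero, add_zero,
          smul_add, smul_smul, smul_smul]
        have : a * t₂ * y = 1 - a := by simp only [t₂]; field_simp
        rw [this]
        module
      rw [e1, e2, lin, act_re_eb, act_re_eb, hxv, hrh, List.map_nil, List.sum_nil, smul_zero,
        add_zero, smul_smul]
      have : t₃ * x = -a := by simp only [t₃]; field_simp
      rw [this]
      module
    · exact ((((fixP_re hr t₃).1.mul (fixP_re hm t₂).1).mul (fixP_re hr t₁).1).mul hP₂) p hp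
  · simp only [Bool.and_eq_true, List.contains_iff_mem] at hval
    obtain ⟨⟨ha', hb'⟩, hu⟩ := hval
    refine ⟨h₂ * h₁, mul_mem hh₂ hh₁, fun p hp => ?_⟩
    rw [mul_assoc, ← hg₂]
    rcases List.mem_cons.mp hp with hpk | hp
    · obtain ⟨c, hc, hcv⟩ := linE_unit (F := F) hu (act g₂ (eb k))
      have hb := B_act hg₂u hP₂ ha' hb' (eb k)
      simp only [unitTerm, Bool.or_eq_true, decide_eq_true_eq] at hu
      have : a = 1 := by
        rcases hu with e | e <;>
          simpa [B, e, linE, co_eb, ← ha] using hb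
      rw [show p = k from hpk, hvec, this, one_smul]
    · exact hP₂ p hp

/-- The root elements generate the isometry group. -/
theorem E6univ_eq (hF : ∃ t₀ : F, t₀ ≠ 0 ∧ t₀ ≠ 1) : E6univ F = rootGroup F := by
  refine le_antisymm ?_ rootGroup_le
  suffices h : ∀ (L : List Step) (P : List (Fin 27)), stepsB P L = true → ∀ g ∈ E6univ F,
      FixP P g → g ∈ rootGroup F from fun g hg => h stepTab [] stepsB_ok g hg (fun p hp => by simp at hp)
  intro L
  induction L with
  | nil =>
    intro P hb g _ hP
    simp only [stepsB, List.all_eq_true, List.contains_iff_mem] at hb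
    have : g = 1 := Units.ext (Matrix.ext_of_mulVec_single fun i => by
      obtain ⟨j, rfl⟩ := ix.surjective i
      rw [Units.val_one, Matrix.one_mulVec]
      exact hP j (hb j (List.mem_finRange j)))
    rw [this]
    exact one_mem _
  | cons s L ih =>
    intro P hb g hg hP
    simp only [stepsB, Bool.and_eq_true] at hb
    obtain ⟨h, hh, hfix⟩ := exists_step hF hb.1 hg hP
    have := ih (s.k :: P) hb.2 (h * g) (mul_mem (rootGroup_le hh) hg) hfix
    have h2 := mul_mem (inv_mem hh) this
    rwa [inv_mul_cancel_left] at h2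

end CfsgLib.E6Cubic
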