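import Cfsg.Agent.ChevOrth.Iso
import Cfsg.Agent.ChevSteinberg.Data
import Cfsg.Agent.E6Cubic.Gen

/-!
`E₆(q)` as the group of the cubic form is the Chevalley group.
-/

set_option autoImplicit false

namespace CfsgLib.E6Cubic

open Cfsg.Lie CfsgLib.Chevalley CfsgLib.ChevSteinberg CfsgLib.ChevOrth

variable {F : Type*} [Field F]

theorem not_comm : re (F := F) (chevE6.simple 0) 1 * re (chevE6.neg (chevE6.simple 0)) 1 ≠
    re (chevE6.neg (chevE6.simple 0)) 1 * re (chevE6.simple 0) 1 := by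
  intro h
  have hr : chevE6.simple 0 = 56 := by decide +kernel
  have hm : chevE6.neg 56 = 15 := by decide +kernel
  rw [hr, hm] at h
  have hc : ∃ j k : Fin 27, colOf (rv 56) k = [(j, 1)] ∧ colOf (rv 15) j = [(k, 1)] ∧
      colOf (rv 15) k = [] ∧ colOf (rv 56) j = [] ∧ j ≠ k ∨
      colOf (rv 56) k = [(j, -1)] ∧ colOf (rv 15) j = [(k, -1)] ∧
      colOf (rv 15) k = [] ∧ colOf (rv 56) j = [] ∧ j ≠ k := by decide +kernel
  obtain ⟨j, k, hjk⟩ := hc
  obtain ⟨x, hx, h1, h2, h3, h4, hne⟩ : ∃ x : ℤ, (x = 1 ∨ x = -1) ∧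
      colOf (rv 56) k = [(j, x)] ∧ colOf (rv 15) j = [(k, x)] ∧
      colOf (rv 15) k = [] ∧ colOf (rv 56) j = [] ∧ j ≠ k := by
    rcases hjk with e | e
    · exact ⟨1, Or.inl rfl, e⟩
    · exact ⟨-1, Or.inr rfl, e⟩
  have key := congrArg (fun g : GL I27 F => co (act g (eb k)) k) h
  simp only [act_mul] at key
  rw [act_re_eb 15, h3, List.map_nil, List.sum_nil, smul_zero, add_zero, act_re_eb 56, h1] at key
  simp only [act, List.map_cons, List.map_nil, List.sum_cons, List.sum_nil, add_zero, one_smul,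
    Matrix.mulVec_add, Matrix.mulVec_smul] at key
  rw [show ((re 15 (1 : F) : GL I27 F) : Matrix I27 I27 F).mulVec (eb k) = act (re 15 1) (eb k)
    from rfl, show ((re 15 (1 : F) : GL I27 F) : Matrix I27 I27 F).mulVec (eb j) = act (re 15 1) (eb j)
    from rfl, act_re_eb, act_re_eb, h3, h2] at key
  simp only [List.map_cons, List.map_nil, List.sum_cons, List.sum_nil, add_zero, one_smul,
    co_add, co_smul, co_eb, hne.symm, hne, if_true, if_false, mul_zero, mul_one, zero_add,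
    co_zero] at key

  rcases hx with rfl | rfl <;> simp at key

/-- The isomorphism. -/
theorem e6_equiv [Finite F] (hF : 3 ≤ Nat.card F) (hs : IsSimpleGroup ↥(chevE6.group F)) :
    Nonempty (Cfsg.Lie.E6 F ≃* ↥(chevE6.group F)) := by
  have : Fintype F := Fintype.ofFinite F
  have ht : ∃ t₀ : F, t₀ ≠ 0 ∧ t₀ ≠ 1 := by
    classical
    obtain ⟨t, -, ht⟩ := Finset.exists_mem_notMem_of_card_lt_card
      (s := ({0, 1} : Finset F)) (t := Finset.univ)
      (lt_of_le_of_lt Finset.card_le_two (by rw [Finset.card_univ, ← Nat.card_eq_fintype_card]; omega))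
    simp only [Finset.mem_insert, Finset.mem_singleton, not_or] at ht
    exact ⟨t, ht⟩
  have hU := E6univ_eq ht
  let χ : chevE6.SteinbergCover F →* ↥(E6univ F) :=
    (checked (F := F)).coverHom.codRestrict (E6univ F) fun x => hU ▸ (⟨x, rfl⟩ : _ ∈ rootGroup F)
  have hχ : Function.Surjective χ := fun g => by
    obtain ⟨x, hx⟩ := hU.le g.2
    exact ⟨x, Subtype.ext hx⟩
  obtain ⟨e⟩ := iso_of_cover (D := chevE6) sysE6 witness_E6 hs χ hχ
    (a := ⟨re (chevE6.simple 0) 1, hU ▸ re_mem _ _⟩)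
    (b := ⟨re (chevE6.neg (chevE6.simple 0)) 1, hU ▸ re_mem _ _⟩)
    (fun h => not_comm (congrArg Subtype.val h))
  exact ⟨e.symm⟩

end CfsgLib.E6Cubic
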