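import Cfsg.Prelude.Def_E6
import Cfsg.Agent.Eq.Def_E6
import Cfsg.Agent.E6Cubic.Table

/-!
The cubic form as a sum of monomials, its quadratic forms at the basis points and their polar forms.
-/

set_option autoImplicit false

namespace CfsgLib.E6Cubic

open Cfsg.Lie

/-- Numbering of the 27 coordinates. -/
def ix : Fin 27 ≃ I27 where
  toFun a := (⟨a.val / 9, by omega⟩, ⟨a.val / 3 % 3, by omega⟩, ⟨a.val % 3, by omega⟩)
  invFun p := ⟨9 * p.1.val + 3 * p.2.1.val + p.2.2.val, by omega⟩
  left_inv := by decide
  right_inv := by decide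

variable {F : Type*} [Field F]

/-- The coordinates of a vector. -/
def co (v : I27 → F) (a : Fin 27) : F := v (ix a)

/-- The basis vectors. -/
def eb (k : Fin 27) : I27 → F := Pi.single (ix k) 1

theorem co_eb (k a : Fin 27) : co (eb k : I27 → F) a = if a = k then 1 else 0 := by
  simp [co, eb, Pi.single_apply]

theorem co_add (v w : I27 → F) (a : Fin 27) : co (v + w) a = co v a + co w a := rfl

theorem co_smul (t : F) (v : I27 → F) (a : Fin 27) : co (t • v) a = t * co v a := rfl

theorem co_zero (a : Fin 27) : co (0 : I27 → F) a = 0 := rfl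

theorem ext_co {v w : I27 → F} (h : ∀ a, co v a = co w a) : v = w := funext fun p => by
  simpa [co] using h (ix.symm p)

/-- A sum of monomials of degree three. -/
def cubE (L : List (ℤ × Fin 27 × Fin 27 × Fin 27)) (v : I27 → F) : F :=
  (L.map fun m => (m.1 : F) * co v m.2.1 * co v m.2.2.1 * co v m.2.2.2).sum

theorem cubicT_eq (v : I27 → F) : cubicT v = cubE monTab v := by
  simp only [cubicT, Matrix.det_fin_three, Matrix.trace_fin_three, Matrix.mul_apply,
    Fin.sum_univ_three, mat3, Matrix.of_apply, cubE, monTab, List.map_cons, List.map_nil,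
    List.sum_cons, List.sum_nil, co, ix, Equiv.coe_fn_mk]
  push_cast
  ring_nf
  rfl

/-- The monomials of the quadratic form at `p`. -/
def qTerms (p : Fin 27) : List (ℤ × Fin 27 × Fin 27) :=
  monTab.filterMap fun m =>
    if m.2.1 = p then some (m.1, m.2.2.1, m.2.2.2)
    else if m.2.2.1 = p then some (m.1, m.2.1, m.2.2.2)
    else if m.2.2.2 = p then some (m.1, m.2.1, m.2.2.1)
    else none

/-- The polar form at `p` with a basis vector. -/
def linTerms (p k : Fin 27) : List (ℤ × Fin 27) :=
  (qTerms p).filterMap fun m =>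
    if m.2.1 = k then some (m.1, m.2.2) else if m.2.2 = k then some (m.1, m.2.1) else none

/-- The quadratic form at `p`. -/
def quadE (L : List (ℤ × Fin 27 × Fin 27)) (v : I27 → F) : F :=
  (L.map fun m => (m.1 : F) * co v m.2.1 * co v m.2.2).sum

/-- A linear form. -/
def linE (L : List (ℤ × Fin 27)) (v : I27 → F) : F :=
  (L.map fun m => (m.1 : F) * co v m.2).sum

/-- The quadratic form at `p`. -/
abbrev Q (p : Fin 27) (v : I27 → F) : F := quadE (qTerms p) v

/-- Its polar form with a basis vector. -/
abbrev B (p k : Fin 27) (v : I27 → F) : F := linE (linTerms p k) v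

theorem mon_distinct : ∀ m ∈ monTab, m.2.1 ≠ m.2.2.1 ∧ m.2.1 ≠ m.2.2.2 ∧ m.2.2.1 ≠ m.2.2.2 := by
  decide +kernel

theorem cubicT_add_eb (p : Fin 27) (s : F) (v : I27 → F) :
    cubicT (s • eb p + v) = cubicT v + s * Q p v := by
  rw [cubicT_eq, cubicT_eq, Q, qTerms]
  have hd := mon_distinct
  revert hd
  generalize monTab = L
  intro hd
  induction L with
  | nil => simp [cubE, quadE]
  | cons m L ih =>
    obtain ⟨c, a, b, e⟩ := m
    have ih' := ih fun x hx => hd x (List.mem_cons_of_mem _ hx)
    obtain ⟨hab, hae, hbe⟩ := hd (c, a, b, e) List.mem_cons_self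
    simp only [cubE, quadE] at ih' ⊢
    simp only [List.map_cons, List.sum_cons]
    rw [ih']
    simp only [co_add, co_smul, co_eb]
    by_cases ha : a = p
    · subst ha
      rw [if_pos rfl, if_neg hab.symm, if_neg hae.symm, List.filterMap_cons_some (by rw [if_pos rfl]),
        List.map_cons, List.sum_cons]
      ring
    by_cases hb : b = p
    · subst hb
      rw [if_neg ha, if_pos rfl, if_neg hbe.symm,
        List.filterMap_cons_some (by rw [if_neg ha, if_pos rfl]), List.map_cons, List.sum_cons]
      ring
    by_cases he : e = p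
    · subst he
      rw [if_neg ha, if_neg hb, if_pos rfl,
        List.filterMap_cons_some (by rw [if_neg ha, if_neg hb, if_pos rfl]), List.map_cons,
        List.sum_cons]
      ring
    rw [if_neg ha, if_neg hb, if_neg he,
      List.filterMap_cons_none (by rw [if_neg ha, if_neg hb, if_neg he])]
    ring

theorem qTerms_distinct : ∀ p, ∀ m ∈ qTerms p, m.2.1 ≠ m.2.2 := by decide +kernel

theorem Q_add_eb (p k : Fin 27) (s : F) (v : I27 → F) :
    Q p (s • eb k + v) = Q p v + s * B p k v := by
  have hd := qTerms_distinct p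
  simp only [Q, B, linTerms]
  revert hd
  generalize qTerms p = L
  intro hd
  induction L with
  | nil => simp [linE, quadE]
  | cons m L ih =>
    obtain ⟨c, a, b⟩ := m
    have ih' := ih fun x hx => hd x (List.mem_cons_of_mem _ hx)
    have hab : a ≠ b := hd (c, a, b) List.mem_cons_self
    simp only [quadE, linE] at ih' ⊢
    simp only [List.map_cons, List.sum_cons]
    rw [ih']
    simp only [co_add, co_smul, co_eb]
    by_cases ha : a = k
    · subst ha
      rw [if_pos rfl, if_neg hab.symm, List.filterMap_cons_some (by rw [if_pos rfl]), List.map_cons,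
        List.sum_cons]
      ring
    by_cases hb : b = k
    · subst hb
      rw [if_neg ha, if_pos rfl, List.filterMap_cons_some (by rw [if_neg ha, if_pos rfl]),
        List.map_cons, List.sum_cons]
      ring
    rw [if_neg ha, if_neg hb, List.filterMap_cons_none (by rw [if_neg ha, if_neg hb])]
    ring

theorem Q_zero (p : Fin 27) : Q p (0 : I27 → F) = 0 :=
  List.sum_eq_zero fun x hx => by
    obtain ⟨m, -, rfl⟩ := List.mem_map.mp hx
    simp [co_zero]

theorem Q_eb (p k : Fin 27) : Q p (eb k : I27 → F) = 0 := by
  have h : B p k (0 : I27 → F) = 0 := List.sum_eq_zero fun x hx => by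
    obtain ⟨m, -, rfl⟩ := List.mem_map.mp hx
    simp [co_zero]
  have := Q_add_eb p k (1 : F) 0
  rwa [one_smul, add_zero, Q_zero, h, mul_zero, add_zero] at this

theorem Q_smul (p : Fin 27) (t : F) (v : I27 → F) : Q p (t • v) = t * t * Q p v := by
  simp only [Q, quadE, ← List.sum_map_mul_left]
  congr 1
  refine List.map_congr_left fun m _ => ?_
  simp only [co_smul]
  ring

theorem cubicT_smul (t : F) (v : I27 → F) : cubicT (t • v) = t * t * t * cubicT v := by
  simp only [cubicT_eq, cubE, ← List.sum_map_mul_left]
  congr 1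
  refine List.map_congr_left fun m _ => ?_
  simp only [co_smul]
  ring

theorem cubicT_eb (k : Fin 27) : cubicT (eb k : I27 → F) = 0 := by
  have h : cubicT (0 : I27 → F) = 0 := by simpa using cubicT_smul (0 : F) (0 : I27 → F)
  have := cubicT_add_eb k (1 : F) 0
  rwa [one_smul, add_zero, h, Q_zero, mul_zero, add_zero] at this

end CfsgLib.E6Cubic
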