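import Cfsg.Prelude.Def_ChevE6
import Cfsg.Agent.ChevOrth.Poly
import Cfsg.Agent.E6Cubic.Form

/-!
The 27-dimensional representation of the cover of type E₆ and the invariance of the cubic form.
-/

set_option autoImplicit false

namespace CfsgLib.E6Cubic

open Cfsg.Lie CfsgLib.ChevOrth

variable {F : Type*} [Field F]

/-- The matrix of a sparse table. -/
noncomputable def spMat (A : Sp) (F : Type*) [Field F] : Matrix I27 I27 F :=
  (A.map fun x => Matrix.single (ix x.1) (ix x.2.1) ((x.2.2 : ℤ) : F)).sum

/-- Product of tables. -/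
def spMul (A B : Sp) : Sp :=
  A.flatMap fun x => B.filterMap fun y =>
    if x.2.1 = y.1 then some (x.1, y.2.1, x.2.2 * y.2.2) else none

/-- Multiple of a table. -/
def spScale (c : ℤ) (A : Sp) : Sp := A.map fun x => (x.1, x.2.1, c * x.2.2)

/-- Insert an entry, merging equal positions. -/
def spIns (x : Fin 27 × Fin 27 × ℤ) : Sp → Sp
  | [] => [x]
  | y :: L => if x.1 = y.1 ∧ x.2.1 = y.2.1 then (y.1, y.2.1, x.2.2 + y.2.2) :: L else y :: spIns x L

/-- Vanishing test. -/
def spZeroB (A : Sp) : Bool := (A.foldr spIns []).all fun x => decide (x.2.2 = 0)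

theorem spMat_append (A B : Sp) : spMat (A ++ B) F = spMat A F + spMat B F := by simp [spMat]

theorem spMat_cons (x : Fin 27 × Fin 27 × ℤ) (A : Sp) :
    spMat (x :: A) F = Matrix.single (ix x.1) (ix x.2.1) ((x.2.2 : ℤ) : F) + spMat A F := by
  simp [spMat]

theorem spMat_nil : spMat ([] : Sp) F = 0 := by simp [spMat]

theorem spMat_scale (c : ℤ) (A : Sp) : spMat (spScale c A) F = (c : F) • spMat A F := by
  induction A with
  | nil => simp [spScale, spMat_nil]
  | cons x A ih =>
    rw [spScale, List.map_cons, spMat_cons, ← spScale, ih, spMat_cons, smul_add, Matrix.smul_single]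
    simp

theorem spMat_mul (A B : Sp) : spMat (spMul A B) F = spMat A F * spMat B F := by
  induction A with
  | nil => simp [spMul, spMat_nil]
  | cons x A ih =>
    rw [spMul, List.flatMap_cons, spMat_append, ← spMul, ih, spMat_cons, add_mul]
    congr 1
    clear ih
    induction B with
    | nil => simp [spMat_nil]
    | cons y B ihB =>
      by_cases h : x.2.1 = y.1
      · rw [List.filterMap_cons_some (by rw [if_pos h]), spMat_cons, ihB, spMat_cons, mul_add, h,
          Matrix.single_mul_single_same]
        push_cast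
        rfl
      · rw [List.filterMap_cons_none (by rw [if_neg h]), ihB, spMat_cons, mul_add,
          Matrix.single_mul_single_of_ne (h := fun e => h (ix.injective e)), zero_add]

theorem spMat_ins (x : Fin 27 × Fin 27 × ℤ) (A : Sp) :
    spMat (spIns x A) F = spMat (x :: A) F := by
  induction A with
  | nil => rfl
  | cons y A ih =>
    rw [spIns]
    split_ifs with h
    · rw [spMat_cons, spMat_cons, spMat_cons, h.1, h.2, ← add_assoc, ← Matrix.single_add]
      push_cast
      rfl
    · rw [spMat_cons, ih, spMat_cons, spMat_cons, spMat_cons]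
      abel

theorem spMat_zero {A : Sp} (h : spZeroB A = true) : spMat A F = 0 := by
  have e : ∀ L : Sp, spMat (L.foldr spIns []) F = spMat L F := by
    intro L
    induction L with
    | nil => rfl
    | cons x L ih => rw [List.foldr_cons, spMat_ins, spMat_cons, ih, spMat_cons]
  rw [← e]
  rw [spZeroB, List.all_eq_true] at h
  refine List.sum_eq_zero fun M hM => ?_
  obtain ⟨x, hx, rfl⟩ := List.mem_map.mp hM
  simp [of_decide_eq_true (h x hx)]

/-- The root vector of a root. -/
def rv (r : ℕ) : Sp := rootTab.getD r []

theorem rv_out {r : ℕ} (h : ¬ r < 72) : rv r = [] :=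
  List.getD_eq_default _ _ (by simp [rootTab]; omega)

/-- The table of root elements. -/
def tab : RTab I27 := fun r =>
  ((List.finRange 27).map fun a => (ix a, ix a, (1 : ℤ), 0)) ++
    (rv r).map fun x => (ix x.1, ix x.2.1, x.2.2, 1)

theorem rmat_tab (r : ℕ) (t : F) : rmat tab F r t = 1 + t • spMat (rv r) F := by
  unfold rmat tab
  rw [List.map_append, List.sum_append]
  congr 1
  · simp only [List.map_map, Function.comp_def, Int.cast_one, pow_zero, mul_one]
    rw [← Fin.sum_univ_def]
    ext i j
    rw [Matrix.sum_apply, Finset.sum_eq_single (ix.symm i)]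
    · simp [Matrix.single_apply, Matrix.one_apply]
    · intro b _ hb
      rw [Matrix.single_apply, if_neg]
      rintro ⟨e, -⟩
      exact hb (by rw [← e, Equiv.symm_apply_apply])
    · simp
  · induction rv r with
    | nil => simp [spMat_nil]
    | cons x L ih =>
      simp only [List.map_cons, List.sum_cons, ih, spMat_cons, smul_add, Matrix.smul_single,
        pow_one]
      simp [mul_comm]

/-- The checks for the relations of the cover. -/
def relB : Bool :=
  (List.range 72).all fun r =>
    spZeroB (spMul (rv r) (rv r)) &&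
    (List.range 72).all fun s => decide (s = r) || decide (s = chevE6.neg r) ||
      match chevE6.commTerms r s with
      | [] => spZeroB (spMul (rv s) (rv r) ++ spScale (-1) (spMul (rv r) (rv s)))
      | [(c, C, 1, 1)] =>
        spZeroB (spMul (rv s) (rv r) ++ spScale (-1) (spMul (rv r) (rv s)) ++ spScale C (rv c)) &&
          spZeroB (spMul (rv r) (rv c)) && spZeroB (spMul (rv s) (rv c))
      | _ => false

theorem relB_ok : relB = true := by decide +kernel

theorem checked : Checked chevE6 tab F := by
  have h := relB_ok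
  simp only [relB, List.all_eq_true, List.mem_range, Bool.and_eq_true, Bool.or_eq_true,
    decide_eq_true_eq] at h
  have hn : chevE6.nroots = 72 := by decide +kernel
  have sq : ∀ r < 72, spMat (rv r) F * spMat (rv r) F = 0 := fun r hr => by
    rw [← spMat_mul, spMat_zero (h r hr).1]
  refine ⟨fun r hr t => ?_, fun r hr t u => ?_, fun r _ => ?_, fun r hr s hs h1 h2 t u => ?_⟩
  · rw [rmat_tab, rv_out (hn ▸ hr), spMat_nil, smul_zero, add_zero]
  · simp only [rmat_tab, add_mul, mul_add, one_mul, mul_one, smul_mul_assoc, mul_smul_comm,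
      sq r (hn ▸ hr), smul_zero, add_smul]
    abel
  · rw [rmat_tab, zero_smul, add_zero]
  rw [hn] at hr hs
  have hh := ((h r hr).2 s hs).resolve_left (fun e => e.elim h1 h2)
  rw [ChevalleyDatum.commWord]
  rcases e : chevE6.commTerms r s with _ | ⟨⟨c, C, i, j⟩, L⟩
  · rw [e] at hh
    have hz := spMat_zero (F := F) hh
    rw [spMat_append, spMat_scale, spMat_mul, spMat_mul, Int.cast_neg, Int.cast_one, neg_one_smul,
      ← sub_eq_add_neg, sub_eq_zero] at hz
    simp only [rmat_tab, List.map_nil, List.prod_nil, mul_one, add_mul, mul_add, one_mul,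
      smul_mul_assoc, mul_smul_comm, hz]
    module
  · rw [e] at hh
    split at hh
    · simp at *
    · rename_i c' C' heq
      simp only [List.cons.injEq, Prod.mk.injEq] at heq
      obtain ⟨⟨rfl, rfl, rfl, rfl⟩, rfl⟩ := heq
      simp only [Bool.and_eq_true] at hh
      obtain ⟨⟨g1, g2⟩, g3⟩ := hh
      have z1 := spMat_zero (F := F) g1
      have z2 := spMat_zero (F := F) g2
      have z3 := spMat_zero (F := F) g3
      rw [spMat_mul] at z2 z3
      rw [spMat_append, spMat_append, spMat_scale, spMat_scale, spMat_mul, spMat_mul, Int.cast_neg,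
        Int.cast_one, neg_one_smul] at z1
      have z1' : spMat (rv s) F * spMat (rv r) F =
          spMat (rv r) F * spMat (rv s) F - (C : F) • spMat (rv c) F := by
        rw [← sub_eq_zero, ← z1]; abel
      simp only [rmat_tab, List.map_cons, List.map_nil, List.prod_cons, List.prod_nil, pow_one,
        mul_one, add_mul, mul_add, one_mul, smul_mul_assoc, mul_smul_comm, z1', z2, z3, smul_sub,
        smul_smul, smul_zero, add_zero, mul_assoc (spMat (rv r) F), mul_zero]
      module
    · simp at hh

/-! ### Invariance -/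

/-- The image of a coordinate under a root vector. -/
def rowOf (A : Sp) (a : Fin 27) : List (Fin 27 × ℤ) :=
  A.filterMap fun x => if x.1 = a then some (x.2.1, x.2.2) else none

/-- Monomials with the degree in the parameter. -/
abbrev PT : Type := ℕ × ℤ × Fin 27 × Fin 27 × Fin 27

/-- Evaluation. -/
def ptE (L : List PT) (t : F) (v : I27 → F) : F :=
  (L.map fun m => t ^ m.1 * (m.2.1 : F) * co v m.2.2.1 * co v m.2.2.2.1 * co v m.2.2.2.2).sum

/-- The terms by which a monomial changes. -/
def deltaT (A : Sp) (m : ℤ × Fin 27 × Fin 27 × Fin 27) : List PT :=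
  let a := m.2.1
  let b := m.2.2.1
  let e := m.2.2.2
  let fa := (0, (1 : ℤ), a) :: (rowOf A a).map fun y => (1, y.2, y.1)
  let fb := (0, (1 : ℤ), b) :: (rowOf A b).map fun y => (1, y.2, y.1)
  let fe := (0, (1 : ℤ), e) :: (rowOf A e).map fun y => (1, y.2, y.1)
  (fa.flatMap fun x => fb.flatMap fun y => fe.map fun z =>
    (x.1 + y.1 + z.1, m.1 * x.2.1 * y.2.1 * z.2.1, x.2.2, y.2.2, z.2.2)).tail

/-- Sort three points. -/
def sort3 (a b c : Fin 27) : Fin 27 × Fin 27 × Fin 27 :=
  let p := if a ≤ b then (a, b) else (b, a)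
  if c ≤ p.1 then (c, p.1, p.2) else if c ≤ p.2 then (p.1, c, p.2) else (p.1, p.2, c)

/-- Insert a monomial, merging equal keys. -/
def ptIns (x : PT) : List PT → List PT
  | [] => [x]
  | y :: L =>
    if x.1 = y.1 ∧ sort3 x.2.2.1 x.2.2.2.1 x.2.2.2.2 = sort3 y.2.2.1 y.2.2.2.1 y.2.2.2.2 then
      (y.1, x.2.1 + y.2.1, y.2.2) :: L
    else y :: ptIns x L

/-- Vanishing test. -/
def ptZeroB (L : List PT) : Bool := (L.foldr ptIns []).all fun x => decide (x.2.1 = 0)

/-- The test of invariance. -/
def invB : Bool := (List.range 72).all fun r => ptZeroB (monTab.flatMap (deltaT (rv r)))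

theorem invB_ok : invB = true := by decide +kernel

theorem sort3_prod (v : I27 → F) (a b c : Fin 27) :
    co v (sort3 a b c).1 * co v (sort3 a b c).2.1 * co v (sort3 a b c).2.2 =
      co v a * co v b * co v c := by
  unfold sort3
  simp only []
  split_ifs <;> ring

theorem ptE_ins (t : F) (v : I27 → F) (x : PT) (L : List PT) :
    ptE (ptIns x L) t v = ptE (x :: L) t v := by
  induction L with
  | nil => rfl
  | cons y L ih =>
    rw [ptIns]
    split_ifs with h
    · have e := sort3_prod v x.2.2.1 x.2.2.2.1 x.2.2.2.2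
      rw [h.2, sort3_prod] at e
      simp only [ptE, List.map_cons, List.sum_cons, Int.cast_add]
      rw [h.1]
      linear_combination (t ^ y.1 * (x.2.1 : F)) * e
    · simp only [ptE, List.map_cons, List.sum_cons] at ih ⊢
      rw [ih]; ring

theorem ptE_zero {L : List PT} (h : ptZeroB L = true) (t : F) (v : I27 → F) : ptE L t v = 0 := by
  have e : ∀ M : List PT, ptE (M.foldr ptIns []) t v = ptE M t v := by
    intro M
    induction M with
    | nil => rfl
    | cons x M ih =>
      rw [List.foldr_cons, ptE_ins]
      simp only [ptE, List.map_cons, List.sum_cons] at ih ⊢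
      rw [ih]
  rw [← e]
  rw [ptZeroB, List.all_eq_true] at h
  refine List.sum_eq_zero fun M hM => ?_
  obtain ⟨x, hx, rfl⟩ := List.mem_map.mp hM
  simp [of_decide_eq_true (h x hx)]

theorem co_spMat (A : Sp) (v : I27 → F) (a : Fin 27) :
    co ((spMat A F).mulVec v) a = linE ((rowOf A a).map fun y => (y.2, y.1)) v := by
  induction A with
  | nil => simp [spMat_nil, rowOf, linE, co]
  | cons x A ih =>
    rw [spMat_cons, Matrix.add_mulVec, co_add, ih]
    by_cases h : x.1 = a
    · subst h
      rw [rowOf, rowOf, List.filterMap_cons_some (by rw [if_pos rfl])]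
      simp [linE, co, Matrix.mulVec, dotProduct, Matrix.single_apply, ite_and]
    · rw [rowOf, rowOf, List.filterMap_cons_none (by rw [if_neg h])]
      simp [co, Matrix.mulVec, dotProduct, Matrix.single_apply, h]

/-- The action of a root element on coordinates. -/
theorem co_rmat (r : ℕ) (t : F) (v : I27 → F) (a : Fin 27) :
    co ((rmat tab F r t).mulVec v) a =
      co v a + t * linE ((rowOf (rv r) a).map fun y => (y.2, y.1)) v := by
  rw [rmat_tab, Matrix.add_mulVec, Matrix.one_mulVec, Matrix.smul_mulVec, co_add, co_smul,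
    co_spMat]

theorem cubicT_rmat {r : ℕ} (hr : r < 72) (t : F) (v : I27 → F) :
    cubicT ((rmat tab F r t).mulVec v) = cubicT v := by
  have h := invB_ok
  simp only [invB, List.all_eq_true, List.mem_range] at h
  have h0 := ptE_zero (h r hr) t v
  set w := (rmat tab F r t).mulVec v with hw
  set A := rv r with hA
  have key : ∀ m : ℤ × Fin 27 × Fin 27 × Fin 27,
      (m.1 : F) * co w m.2.1 * co w m.2.2.1 * co w m.2.2.2 =
        (m.1 : F) * co v m.2.1 * co v m.2.2.1 * co v m.2.2.2 + ptE (deltaT A m) t v := by
    intro m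
    obtain ⟨c, a, b, e⟩ := m
    let fx : Fin 27 → List (ℕ × ℤ × Fin 27) := fun a =>
      (0, (1 : ℤ), a) :: (rowOf A a).map fun y => (1, y.2, y.1)
    let ev : List (ℕ × ℤ × Fin 27) → F := fun L =>
      (L.map fun y => t ^ y.1 * (y.2.1 : F) * co v y.2.2).sum
    have hf : ∀ a, co w a = ev (fx a) := by
      intro a
      rw [hw, co_rmat, ← hA]
      simp only [ev, fx, linE, List.map_cons, List.sum_cons, List.map_map, Function.comp_def,
        pow_zero, Int.cast_one, one_mul, pow_one, ← List.sum_map_mul_left, mul_assoc]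
    have hprod : ∀ La Lb Le : List (ℕ × ℤ × Fin 27),
        ptE (La.flatMap fun x => Lb.flatMap fun y => Le.map fun z =>
          (x.1 + y.1 + z.1, c * x.2.1 * y.2.1 * z.2.1, x.2.2, y.2.2, z.2.2)) t v =
        (c : F) * ev La * ev Lb * ev Le := by
      intro La Lb Le
      have hap : ∀ M N : List PT, ptE (M ++ N) t v = ptE M t v + ptE N t v := fun M N => by
        simp [ptE]
      have h1 : ∀ x y : ℕ × ℤ × Fin 27, ptE (Le.map fun z =>
          (x.1 + y.1 + z.1, c * x.2.1 * y.2.1 * z.2.1, x.2.2, y.2.2, z.2.2)) t v =
          (c : F) * (t ^ x.1 * (x.2.1 : F) * co v x.2.2) *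
            (t ^ y.1 * (y.2.1 : F) * co v y.2.2) * ev Le := by
        intro x y
        simp only [ptE, ev, List.map_map, Function.comp_def, ← List.sum_map_mul_left]
        refine congrArg List.sum (List.map_congr_left fun z _ => ?_)
        push_cast
        ring
      have h2 : ∀ x : ℕ × ℤ × Fin 27, ptE (Lb.flatMap fun y => Le.map fun z =>
          (x.1 + y.1 + z.1, c * x.2.1 * y.2.1 * z.2.1, x.2.2, y.2.2, z.2.2)) t v =
          (c : F) * (t ^ x.1 * (x.2.1 : F) * co v x.2.2) * ev Lb * ev Le := by
        intro x
        induction Lb with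
        | nil => simp [ptE, ev]
        | cons y Lb ihb =>
          rw [List.flatMap_cons, hap, ihb, h1]
          simp only [ev, List.map_cons, List.sum_cons]
          ring
      induction La with
      | nil => simp [ptE, ev]
      | cons x La ih =>
        rw [List.flatMap_cons, hap, ih, h2]
        simp only [ev, List.map_cons, List.sum_cons]
        ring
    have := hprod (fx a) (fx b) (fx e)
    simp only [hf]
    rw [← this]
    simp [ptE, deltaT, fx, add_assoc]
  rw [cubicT_eq, cubicT_eq]
  simp only [cubE, key]
  rw [List.sum_map_add]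
  have hjoin : (monTab.map fun m => ptE (deltaT A m) t v).sum =
      ptE (monTab.flatMap (deltaT A)) t v := by
    generalize monTab = L
    induction L with
    | nil => simp [ptE]
    | cons m L ih =>
      rw [List.map_cons, List.sum_cons, List.flatMap_cons, ih]
      simp [ptE]
  rw [hjoin, h0, add_zero]

end CfsgLib.E6Cubic
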